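import Cfsg.Agent.FT.Tri1

/-!
# Disconnected commuting graphs: the components are orthogonal spaces
-/

set_option autoImplicit false

namespace Cfsg.Agent.FT

open Cfsg Cfsg.Agent.TT Subgroup
open Cfsg.Agent.Fi (perp)

variable {G : Type*} [Group G] {D S T O X Y : Set G} {a b c d g t x x' y y' z : G}

theorem TP.exists_st (P : TP D X Y) (hy : y ∈ Y) (hx : x ∈ X) (ha : a ∈ perp Y y) :
    ∃ x' ∈ perp X x, y ▹ x ▹ x' = a := by
  obtain ⟨x', hx', e⟩ := P.surj hy hx ha.1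
  exact ⟨x', ⟨hx', fun q => ha.2.1 (by rw [← e, q, P.px.ss hx]),
    (P.cm hy hx hx').1 (e ▸ ha.2.2.symm)⟩, e⟩

theorem TP.not_sym (P : TP D X Y) : ¬ KSym Y := by
  rintro ⟨n, hn, τ, K⟩
  obtain ⟨p, q, r, s, t, pq, pr, ps, pt, qr, qs, qt, rs, rt, st⟩ : ∃ p q r s t : Fin n, p ≠ q ∧ p ≠ r ∧
      p ≠ s ∧ p ≠ t ∧ q ≠ r ∧ q ≠ s ∧ q ≠ t ∧ r ≠ s ∧ r ≠ t ∧ s ≠ t :=
    ⟨⟨0, by omega⟩, ⟨1, by omega⟩, ⟨2, by omega⟩, ⟨3, by omega⟩, ⟨4, by omega⟩, by simp⟩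
  obtain ⟨x, hx⟩ := P.cx.ne
  have H := P.py.toFS
  have m01 := K.mem pq
  have m12 := K.mem qr
  have n1 := K.nc pq qr pr
  obtain ⟨x', hx', e⟩ := P.surj m01 hx m12
  have T := P.tt hx hx' fun q => n1 (e ▸ (P.cm m01 hx hx').2 q).symm
  rw [sj_sj] at e
  generalize x * x' = g at e T
  have e' : τ q r ▹ g = τ p r := by rw [← e, ← T.ln m01, e, ← H.br m01 m12 n1, K.r1 pq qr pr]
  have key : ∀ k, p ≠ k → q ≠ k → r ≠ k → τ p k ▹ g = τ q k := fun k h0 h1 h2 => by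
    have mk := K.mem h0
    obtain ⟨i, j, ij, w⟩ := K.surj _ (H.sj_mem T.mem mk)
    have a1 := T.nc mk
    have a2 : ¬ τ p k ▹ g ⫫ τ q r := by rw [← e, comm_sj]; exact K.nc' h0 h1.symm pq
    have a3 := And.intro (K.r2 h0 pq pr h1.symm h2.symm qr) (K.inj h0 pq pr h1.symm h2.symm qr)
    rw [← comm_sj (g := g), Ne, ← sj_inj (g := g), e'] at a3
    rw [w] at a1 a2 a3 ⊢
    obtain ⟨b1, b2, b3, b4⟩ := K.eq_or ij pr a3.1 a3.2
    have c1 : i = k ∨ j = k := by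
      by_contra c; push Not at c; exact a1 (K.r2 ij b1 c.1 b3 c.2 h0)
    have c2 : i = q ∨ j = q := by
      by_contra c; push Not at c; exact a2 (K.r2 ij c.1 b2 c.2 b4 qr)
    rcases c1 with rfl | rfl <;> rcases c2 with rfl | rfl
    exacts [absurd rfl h1, K.sy ij, rfl, absurd rfl h1]
  have f : ∀ i, i ≠ s → i ≠ t → τ i s ▹ τ i t = τ s t := fun i h3 h4 => by
    rw [K.sy h3, K.r1 h3.symm h4 st]
  refine T.nc (K.mem st) (comm_of_eq' ?_)
  conv_lhs => rw [← f p ps pt, sj_dist, key s ps qs rs, key t pt qt rt, f q qs qt]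

theorem clo_ind2 {p : G → Prop} (hs : ∀ s ∈ T, s * s = 1) (h : ∀ x, ∀ y ∈ T, p x → p (x ▹ y))
    (hg : g ∈ closure T) (ha : p a) : p (a ▹ g) := by
  induction hg using closure_induction_right generalizing a with
  | one => simpa
  | mul_right x _ y hy ih => rw [← sj_sj]; exact h _ y hy (ih ha)
  | mul_inv_cancel x _ y hy ih =>
    rw [← sj_sj, inv_eq_of_mul_eq_one_right (hs y hy)]; exact h _ y hy (ih ha)

/-- a maximal set of commuting points -/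
def MaxC (Y O : Set G) : Prop := O ⊆ Y ∧ ∀ z ∈ Y, (z ∈ O ↔ ∀ o ∈ O, z ⫫ o)

theorem MaxC.ne (h : MaxC Y O) (hy : y ∈ Y) : O.Nonempty := by
  by_contra q
  exact q ⟨y, (h.2 y hy).2 fun o ho => absurd ⟨o, ho⟩ q⟩

theorem MaxC.perp (h : MaxC Y O) (ha : a ∈ O) : MaxC (perp Y a) (O \ {a}) :=
  ⟨fun z hz => ⟨h.1 hz.1, hz.2, (h.2 a (h.1 ha)).1 ha z hz.1⟩, fun z hz =>
    ⟨fun q o ho => (h.2 z hz.1).1 q.1 o ho.1, fun q => ⟨(h.2 z hz.1).2 fun o ho => by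
      by_cases e : o = a
      exacts [e ▸ hz.2.2.symm, q o ⟨ho, e⟩], hz.2.1⟩⟩⟩

variable [Finite G]

theorem TP.not_pol (P : TP D X Y) : ¬ Pol Y := fun Q => by
  classical
  obtain ⟨d, hd, -⟩ := P.py.two
  obtain ⟨a, ha⟩ := P.py.exists_perp hd
  obtain ⟨x, hx⟩ := P.cx.ne
  obtain ⟨x', hx', e⟩ := P.exists_st hd hx ha
  have s := P.st' hx hx'.1 hx'.2.2 hx'.2.1.symm
  rw [sj_sj] at e
  generalize x * x' = g at e s
  have i : ∀ c, c ▹ g ▹ g = c := fun c => by rw [sj_sj, s.sq, sj_one]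
  obtain ⟨L, hL, h1, h2⟩ := P.py.exists_ln hd ha.1 ha.2.1.symm ha.2.2
  have fin := Set.toFinite L
  have := Finset.sum_involution (s := fin.toFinset) (f := fun _ => (1 : ZMod 2))
    (fun c _ => c ▹ g) (fun _ _ => rfl) (fun c hc _ => s.ne (hL.sub (by simpa using hc)))
    (fun c hc => fin.mem_toFinset.2 (hL.stab P.py.toFS s.mem h1 h2 ha.2.1.symm (e ▸ h2)
      (by rwa [← e, i]) (fin.mem_toFinset.1 hc))) fun c _ => i c
  refine Nat.not_even_iff_odd.2 (Q.odd hL) ?_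
  rw [Set.ncard_eq_toFinset_card _ fin, ← ZMod.natCast_eq_zero_iff_even]
  simpa using this

theorem ncard_orb (h1 : ∀ s ∈ T, s * s = 1) (h2 : ∀ s ∈ T, ∀ t ∈ T, s ⫫ t) (y : G) :
    ∃ k, (orb T y).ncard = 2 ^ k := by
  let := MulAction.compHom G (MulAut.conj.comp (closure T).subtype)
  obtain ⟨k, hk⟩ := (isPGroup_closure_two h1 h2).card_orbit y
  refine ⟨k, hk ▸ congrArg _ (Set.ext fun z => ⟨?_, ?_⟩)⟩
  · rintro ⟨g, hg, rfl⟩; exact ⟨⟨g⁻¹, inv_mem hg⟩, (sj_eq_conj y g).symm⟩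
  · rintro ⟨g, rfl⟩; exact ⟨g⁻¹, inv_mem g.2, sj_inv_eq y g⟩

theorem TP.max2 (P : TP D X Y) : ∃ O k, MaxC Y O ∧ O.ncard = 2 ^ k := by
  obtain ⟨x, hx⟩ := P.cx.ne
  obtain ⟨y, hy⟩ := P.cy.ne
  have H := P.px.toFS
  obtain ⟨A, ⟨a1, a2, a3⟩, hm⟩ := Set.exists_max_image
    {A | A ⊆ X ∧ x ∈ A ∧ ∀ a ∈ A, ∀ o ∈ orb ((x * ·) '' A) y, y ▹ x ▹ a ⫫ o} Set.ncard (Set.toFinite _)
    ⟨{x}, by simpa, rfl, by
      rintro a rfl _ ⟨g, hg, rfl⟩
      rw [H.ss hx]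
      exact comm_sj_r (.refl y) (comm_clo hg (by simp [H.sq hx]))⟩
  have m : ∀ a ∈ A, y ▹ x ▹ a ∈ orb ((x * ·) '' A) y := fun a ha =>
    ⟨_, subset_closure ⟨a, ha, rfl⟩, (sj_sj _ _ _).symm⟩
  have sub : orb ((x * ·) '' A) y ⊆ Y := by
    rintro _ ⟨g, hg, rfl⟩
    exact P.py.sj_mem ((closure_le _).2 (by rintro _ ⟨a, ha, rfl⟩; exact P.mx hx (a1 ha)) hg) hy
  have c0 : ∀ o ∈ orb ((x * ·) '' A) y, y ⫫ o := by simpa [H.ss hx] using a3 x a2
  have sq : ∀ a ∈ X, x ⫫ a → x * a * (x * a) = 1 := fun a ha c => by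
    rw [c.symm.mul_mul_mul_comm, H.sq hx, H.sq ha, one_mul]
  have cm : ∀ a ∈ A, ∀ b ∈ A, a ⫫ b := fun a ha b hb => (P.cm2 hy hx (a1 ha) (a1 hb)).1 (a3 a ha _ (m b hb))
  obtain ⟨k, hk⟩ := ncard_orb (T := (x * ·) '' A) (by
    rintro _ ⟨a, ha, rfl⟩; exact sq a (a1 ha) (cm x a2 a ha)) (by
    rintro _ ⟨a, ha, rfl⟩ _ ⟨b, hb, rfl⟩
    exact ((Commute.refl x).mul_right (cm x a2 b hb)).mul_left ((cm a ha x a2).mul_right (cm a ha b hb))) y
  refine ⟨_, k, ⟨sub, fun z hz => ⟨?_, fun h => ?_⟩⟩, hk⟩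
  · rintro ⟨g, hg, rfl⟩ o ho
    exact comm_sj_inv.2 (c0 _ (orb_sj ho (inv_mem hg)))
  obtain ⟨b, hb, rfl⟩ := P.surj hy hx hz
  have cb : ∀ a ∈ A, b ⫫ a := fun a ha => (P.cm2 hy hx hb (a1 ha)).1 (h _ (m a ha))
  have ct : ∀ g ∈ closure ((x * ·) '' A), x * b ⫫ g := fun g hg => comm_clo hg (by
    rintro _ ⟨a, ha, rfl⟩
    exact ((Commute.refl x).mul_right (cm x a2 a ha)).mul_left ((cb x a2).mul_right (cb a ha)))
  have i : ∀ c, c ▹ (x * b) ▹ (x * b) = c := fun c => by rw [sj_sj, sq b hb (cb x a2).symm, sj_one]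
  have := hm (insert b A) ⟨Set.insert_subset hb a1, .inr a2, by
    rintro a ha _ ⟨g, hg, rfl⟩
    have := clo_ind2 (p := fun o => o ∈ orb ((x * ·) '' A) y ∨ o ▹ (x * b) ∈ orb ((x * ·) '' A) y) (by
      rintro _ ⟨a, rfl | ha, rfl⟩
      exacts [sq _ hb (cb x a2).symm, sq a (a1 ha) (cm x a2 a ha)]) (by
      rintro o _ ⟨a, rfl | ha, rfl⟩ q
      · rw [i]; exact q.symm
      · have k := subset_closure (k := (x * ·) '' A) ⟨a, ha, rfl⟩
        exact q.imp (orb_sj · k) fun q => sj_comm (ct _ k) o ▸ orb_sj q k) hg (.inl orb_self)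
    generalize y ▹ g = o at this
    rcases ha with rfl | ha <;> rcases this with q | q
    · exact h o q
    · rw [← comm_sj (g := x * a), sj_sj y, i]; exact c0 _ q
    · exact a3 a ha o q
    · obtain ⟨g, hg, e⟩ := q
      rw [← i o, ← e, ← sj_comm (ct g hg), ← sj_sj y, Commute.symm_iff, comm_sj_inv]
      exact h _ (orb_sj (m a ha) (inv_mem hg))⟩
  exact m b (by_contra fun q => by simp [Set.ncard_insert_of_notMem q] at this)

open Cfsg.Agent.Cl.Uni in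
theorem KU.maxc (K : KU 6 T) (P : Prim T) (h : MaxC T O) : ∃ r, 3 * O.ncard + 1 = 64 * (r + 1) := by
  obtain ⟨u0, hu0, v0, hv0, w0, hw0, z0, hz0, c1, c2, c3, c4, c5, c6, c7⟩ := K.plane
  obtain ⟨ι, K⟩ := K
  obtain ⟨u, hu⟩ := h.ne hu0
  obtain ⟨v, hv⟩ := (P.exists_perp (h.1 hu)).elim fun _ => (h.perp hu).ne
  have hv' := (h.perp hu).1 hv
  obtain ⟨g, hg, rfl, rfl⟩ := P.pair_c hu0 ⟨hv0, c1.symm, c2⟩ (h.1 hu) hv'
  have sp : ∀ {A : Set G} {z v}, A ⊆ T → z ∈ T → (∀ a ∈ A, z ⫫ a) → v ∈ Submodule.span FF (ι '' A) →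
      stdH FF 6 (ι z) v = 0 := fun hA hz q hv => by
    induction hv using Submodule.span_induction with
    | mem _ k => obtain ⟨a, ha, rfl⟩ := k; exact (K.cm hz (hA ha)).1 (q a ha)
    | zero => simp
    | add _ _ _ _ h1 h2 => simp [h1, h2]
    | smul _ _ _ h1 => simp [h1]
  let R := Submodule.span FF (ι '' O)
  have iso : ∀ v ∈ R, ∀ w ∈ R, stdH FF 6 v w = 0 := fun v hv w hw => by
    induction hv using Submodule.span_induction with
    | mem _ k => obtain ⟨a, ha, rfl⟩ := k; exact sp h.1 (h.1 ha) ((h.2 a (h.1 ha)).1 ha) hw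
    | zero => simp
    | add _ _ _ _ h1 h2 => simp [h1, h2]
    | smul _ _ _ h1 => simp [h1]
  have mR : ∀ o ∈ O, ι o ∈ R := fun o ho => Submodule.subset_span ⟨o, ho, rfl⟩
  have cnt : (O ×ˢ {a : FF | a ≠ 0}).ncard = ((R : Set (Fin 6 → FF)) \ {0}).ncard := by
    refine Set.ncard_congr (fun p _ => p.2 • ι p.1) (fun p hp => ⟨R.smul_mem _ (mR _ hp.1),
      smul_ne_zero hp.2 (K.ne (h.1 hp.1))⟩) (fun p q hp hq e => ?_) fun v hv => ?_
    · have e1 := K.inj (a := p.2⁻¹ * q.2) (h.1 hp.1) (h.1 hq.1) (by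
        rw [mul_smul, ← e, inv_smul_smul₀ hp.2])
      rw [e1] at e
      exact Prod.ext e1 (smul_left_injective _ (K.ne (h.1 hq.1)) e)
    · obtain ⟨x, hx, a, rfl⟩ := K.surj v hv.2 (iso v hv.1 v hv.1)
      have a0 : a ≠ 0 := fun e => hv.2 (by simp [e])
      exact ⟨(x, a), ⟨(h.2 x hx).2 fun o ho => (K.cm hx (h.1 ho)).2 (by
        simpa [a0] using iso _ hv.1 _ (mR o ho)), a0⟩, rfl⟩
  have s2 : ({u0 ▹ g, v0 ▹ g} : Set G) ⊆ O := by rintro _ (rfl | rfl); exacts [hu, hv.1]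
  have l1 : ⊥ < Submodule.span FF (ι '' {u0 ▹ g}) := by simpa [bot_lt_iff_ne_bot] using K.ne (h.1 hu)
  have l2 : Submodule.span FF (ι '' {u0 ▹ g}) < Submodule.span FF (ι '' {u0 ▹ g, v0 ▹ g}) := by
    refine lt_of_le_of_ne (Submodule.span_mono (by simp [Set.image_pair])) fun e => ?_
    have := e.ge (Submodule.subset_span ⟨_, .inr rfl, rfl⟩)
    rw [Set.image_singleton, Submodule.mem_span_singleton] at this
    exact hv.2 (this.elim fun a q => K.inj hv'.1 (h.1 hu) q.symm)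
  have l3 : Submodule.span FF (ι '' {u0 ▹ g, v0 ▹ g}) < R := by
    refine lt_of_le_of_ne (Submodule.span_mono (Set.image_mono s2)) fun e => ?_
    have hw := P.sj_mem hg hw0
    have hz := P.sj_mem hg hz0
    have k : ∀ z ∈ T, z ⫫ u0 ▹ g → z ⫫ v0 ▹ g → ∀ o ∈ O, z ⫫ o := fun z hz q1 q2 o ho =>
      (K.cm hz (h.1 ho)).2 (sp (s2.trans h.1) hz (by rintro _ (rfl | rfl) <;> assumption) (e.ge (mR o ho)))
    exact c7 (comm_sj.1 (k _ hz (comm_sj.2 c5) (comm_sj.2 c6) _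
      ((h.2 _ hw).2 (k _ hw (comm_sj.2 c3.symm) (comm_sj.2 c4.symm)))))
  have l1 := Submodule.finrank_lt_finrank_of_lt l1
  have l2 := Submodule.finrank_lt_finrank_of_lt l2
  have l3 := Submodule.finrank_lt_finrank_of_lt l3
  obtain ⟨r, hr⟩ := Nat.exists_eq_add_of_le (show 3 ≤ Module.finrank FF R by omega)
  have c := Module.natCard_eq_pow_finrank (K := FF) (V := R)
  rw [hr, show Nat.card FF = 4 by rw [Nat.card_eq_fintype_card]; rfl, pow_add] at c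
  rw [Set.ncard_prod, show {a : FF | a ≠ 0}.ncard = 3 by
    rw [Set.ncard_eq_toFinset_card']; rfl] at cnt
  have := Set.ncard_sdiff_singleton_add_one (s := (R : Set (Fin 6 → FF))) R.zero_mem
  have p : 0 < 4 ^ r := by positivity
  refine ⟨4 ^ r - 1, ?_⟩
  change (R : Set (Fin 6 → FF)).ncard = _ at c
  omega

theorem MaxC.step (h : MaxC Y O) (P : Irr Y) :
    ∃ a ∈ Y, ∃ O', MaxC (Fi.perp Y a) O' ∧ O.ncard = O'.ncard + 1 := by
  obtain ⟨d, hd, -⟩ := P.two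
  obtain ⟨a, ha⟩ := h.ne hd
  exact ⟨a, h.1 ha, _, h.perp ha, (Set.ncard_sdiff_singleton_add_one ha).symm⟩

theorem TP.not_spor (P : TP D X Y) : ¬ (K22 Y ∨ K23 Y ∨ K24 Y) := fun K => by
  obtain ⟨O, k, h, hk⟩ := P.max2
  have k22 : ∀ {Y O : Set G}, Prim Y → K22 Y → MaxC Y O → ∃ r, 3 * O.ncard = 64 * (r + 1) + 2 :=
    fun P K h => by
      obtain ⟨a, ha, O', h', e⟩ := h.step P.toIrr
      exact ((K a ha).2.maxc (K a ha).1 h').imp fun r q => by omega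
  have k23 : ∀ {Y O : Set G}, Prim Y → K23 Y → MaxC Y O → ∃ r, 3 * O.ncard = 64 * (r + 1) + 5 :=
    fun P K h => by
      obtain ⟨a, ha, O', h', e⟩ := h.step P.toIrr
      exact (k22 (K a ha).1 (K a ha).2 h').imp fun r q => by omega
  have : ∃ r j, 3 * O.ncard = 64 * (r + 1) + j ∧ 0 < j ∧ j < 16 := by
    rcases K with K | K | K
    · exact (k22 P.py K h).imp fun r q => ⟨_, q, by omega⟩
    · exact (k23 P.py K h).imp fun r q => ⟨_, q, by omega⟩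
    · obtain ⟨a, ha, O', h', e⟩ := h.step P.py.toIrr
      exact (k23 (K a ha).1 (K a ha).2 h').imp fun r q => ⟨8, by omega⟩
  obtain ⟨r, j, q⟩ := this
  rcases lt_or_ge k 4 with l | l
  · interval_cases k <;> omega
  · obtain ⟨k, rfl⟩ := Nat.exists_eq_add_of_le l
    rw [pow_add] at hk; omega

theorem TP.perp_prim (P : TP D X Y) (hd : d ∈ Y) : Prim (perp Y d) := by
  refine P.py.perp_prim hd ⟨P.py.perp d, P.py.g2 hd, fun a ha b hb h => by_contra fun ab =>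
    P.not_pol (P.py.pol hd ha hb ab h), fun a ha b hb h => by_contra fun ab => ?_, P.py.two_perp hd⟩
  have := P.py.l3_sympl fun x hx => P.py.caseB hd ha hb ab h hx
  exact P.not_sym (P.py.ksym this.1 this.2)

theorem TP.ko (P : TP D X Y) : KO 2 6 Y ∨ KO 3 6 Y := by
  obtain ⟨d, hd⟩ := P.cy.ne
  rcases P.py.step hd (P.perp_prim hd) (P.perp_prim hd).known with K | K | K | K
  exacts [absurd K P.not_sym, .inl K, .inr K, absurd K P.not_spor]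

end Cfsg.Agent.FT
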