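import Cfsg.Agent.FT.Tri2
import Cfsg.Agent.FT.Conv

/-!
# Disconnected commuting graphs: characteristic two
-/

set_option autoImplicit false

namespace Cfsg.Agent.FT

open Cfsg Cfsg.Agent.TT Subgroup
open Cfsg.Agent.Cl.Orth hiding perp
open Cfsg.Agent.Fi (perp)

variable {G : Type*} [Group G] {D X Y : Set G} {a b c d g h k k' x x' y y' z : G}

section Gen
variable {F : Type*} [Field F] {V : Type*} [AddCommGroup V] [Module F V] {Q : QuadraticForm F V}
  {ι : G → V} {T U : Module.End F V} {u v w : V}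

theorem pm.map (h : pm u v) (T : Module.End F V) : pm (T u) (T v) := by
  rcases h with rfl | rfl <;> simp [pm]

/-- an isometry inducing the action of a group element -/
structure Rep (Y : Set G) (Q : QuadraticForm F V) (ι : G → V) (g : G) (T : Module.End F V) : Prop where
  mem : ∀ {y}, y ∈ Y → y ▹ g ∈ Y
  iso : ∀ v, Q (T v) = Q v
  act : ∀ {y}, y ∈ Y → pm (ι (y ▹ g)) (T (ι y))

theorem Rep.B (r : Rep Y Q ι g T) (u v : V) : B Q (T u) (T v) = B Q u v := B_congr T r.iso u v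

theorem Rep.one : Rep Y Q ι 1 1 := ⟨by simp, fun _ => rfl, fun _ => by simp [pm]⟩

theorem Rep.mul (r : Rep Y Q ι g T) (s : Rep Y Q ι h U) : Rep Y Q ι (g * h) (U * T) :=
  ⟨fun hy => sj_sj _ g h ▸ s.mem (r.mem hy), fun v => (s.iso _).trans (r.iso v),
    fun hy => sj_sj _ g h ▸ (s.act (r.mem hy)).trans ((r.act hy).map U)⟩

theorem Emb.exists_rep (E : Emb Y Q ι) (H : FS Y) (hg : g ∈ closure Y) : ∃ T, Rep Y Q ι g T := by
  have k : ∀ y ∈ Y, Rep Y Q ι y (reflL Q (ι y)) := fun y hy =>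
    ⟨fun h => H.st h hy, Q_reflL _, fun h => by simpa [reflL_apply, E.q1 hy] using E.st h hy⟩
  induction hg using closure_induction_right with
  | one => exact ⟨1, .one⟩
  | mul_right x _ y hy ih => exact ih.elim fun _ r => ⟨_, r.mul (k y hy)⟩
  | mul_inv_cancel x _ y hy ih => exact ih.elim fun _ r => ⟨_, r.mul (H.inv hy ▸ k y hy)⟩

theorem Rep.vec (r : Rep Y Q ι g T) (E : Emb Y Q ι) (hv : Q v = 1) :
    ∃ y ∈ Y, pm (ι y) v ∧ pm (ι (y ▹ g)) (T v) :=
  let ⟨y, hy, e⟩ := E.surj v hv; ⟨y, hy, e, (r.act hy).trans (e.map T)⟩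

theorem mem_span_of_orth (nd : BNondeg Q) {α : Type*} [Fintype α] {r : α → V}
    (h : ∀ u, (∀ i, B Q (r i) u = 0) → B Q w u = 0) : ∃ c : α → F, w = ∑ i, c i • r i := by
  obtain ⟨c, e⟩ := (Submodule.mem_span_range_iff_exists_fun F).1 (mem_span_of_iInf_ker_le_ker
    (L := fun i => B Q (r i)) (K := B Q w) fun u hu => h u (by simpa using hu))
  refine ⟨c, sub_eq_zero.1 (nd _ fun x => ?_)⟩
  rw [B_comm, map_sub, ← e]; simp

theorem finrank_four [FiniteDimensional F V] {N M A C : Module.End F V} (n : ∀ v, N (N v) = 0)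
    (m : ∀ v, M (M v) = 0) (nm : ∀ v, M (N v) = N (M v)) (h1 : ∀ v, N (A v) + A (N v) = v)
    (h2 : ∀ v, M (C v) + C (M v) = v) (h3 : ∀ v, M (A v) = A (M v)) :
    Module.finrank F V = 4 * Module.finrank F (LinearMap.range (N * M)) := by
  let s := (LinearMap.range (N * M)).subtype
  have k : ∀ r, N (s r) = 0 ∧ M (s r) = 0 ∧ N (A (s r)) = s r ∧ M (C (s r)) = s r ∧
      M (C (A (s r))) = A (s r) := by
    rintro ⟨_, v, rfl⟩
    have := h1 (N (M v))
    have := h2 (N (M v))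
    have := h2 (A (N (M v)))
    simp_all [s]
  rw [← (LinearEquiv.ofBijective (s.coprod ((A ∘ₗ s).coprod ((C ∘ₗ s).coprod (C ∘ₗ A ∘ₗ s))))
    ⟨(injective_iff_map_eq_zero _).2 fun ⟨a, b, c, d⟩ e => ?_, fun v => ⟨(⟨_, A (C v), rfl⟩, ⟨_, C v, rfl⟩,
      ⟨_, A v, rfl⟩, ⟨_, v, rfl⟩), ?_⟩⟩).finrank_eq]
  · simp only [Module.finrank_prod]; ring
  · simp only [LinearMap.coprod_apply, LinearMap.comp_apply] at e
    have e1 := congrArg M e
    simp only [map_add, h3, k, map_zero, zero_add] at e1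
    have e2 := congrArg N e1
    simp only [map_add, k, map_zero, zero_add] at e2
    rw [e2, map_zero, add_zero] at e1
    simp only [e1, e2, map_zero, add_zero] at e
    have e3 := congrArg N e
    simp only [map_add, k, map_zero, zero_add] at e3
    rw [e3, map_zero, add_zero] at e
    simpa [s] using And.intro e (And.intro e3 (And.intro e1 e2))
  · simp only [s, LinearMap.coprod_apply, LinearMap.comp_apply, Submodule.subtype_apply,
      Module.End.mul_apply, h3]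
    rw [← add_assoc, h1, ← map_add, h1, h2]

end Gen

variable {V : Type*} [AddCommGroup V] [Module (ZMod 2) V] {Q : QuadraticForm (ZMod 2) V}
  {ι : G → V} {T U : Module.End (ZMod 2) V} {u v w : V}

/-- an orthogonal space over the field with two elements -/
structure E2 (Y : Set G) (Q : QuadraticForm (ZMod 2) V) (ι : G → V) : Prop extends Emb Y Q ι where
  fs : FS Y
  nd : BNondeg Q
  hw : ∀ u v, ∃ w, Q w = 1 ∧ B Q u w = 0 ∧ B Q v w = 0

variable (E : E2 Y Q ι)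
include E

theorem E2.ind {p : V → Prop} (h1 : ∀ y ∈ Y, p (ι y)) (h2 : ∀ u v, p u → p v → p (u + v)) (v : V) :
    p v := by
  have k : ∀ v, Q v = 1 → p v := fun v hv => let ⟨y, hy, e⟩ := E.surj v hv; pm_two.1 e ▸ h1 y hy
  rcases zmod2_cases (Q v) with e | e
  · obtain ⟨w, a1, a2, -⟩ := E.hw v v
    simpa [add_assoc, two_add] using h2 _ _ (k (v + w) (by simp [Q_add, e, a1, a2])) (k w a1)
  · exact k v e

theorem E2.uniq (r : Rep Y Q ι g T) (s : Rep Y Q ι g U) : T = U := LinearMap.ext <|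
  E.ind (fun _ hy => (pm_two.1 (r.act hy)).symm.trans (pm_two.1 (s.act hy))) fun _ _ a b => by
    rw [map_add, map_add, a, b]

theorem E2.cmr (r : Rep Y Q ι g T) (s : Rep Y Q ι h U) (c : g ⫫ h) : T * U = U * T :=
  E.uniq (s.mul r) (c.eq ▸ r.mul s)

theorem E2.st1 (r : Rep Y Q ι g T) (s : St Y g) :
    (∀ u, T (T u) = u) ∧ (∀ u w, B Q u (T w) = B Q (T u) w) ∧ ∀ u, Q (T u + u) = 0 := by
  have h1 : ∀ u, T (T u) = u := LinearMap.congr_fun (E.uniq (r.mul r) (s.sq.symm ▸ Rep.one))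
  have h2 : ∀ u w, B Q u (T w) = B Q (T u) w := fun u w => by rw [← r.B, h1]
  refine ⟨h1, h2, fun u => ?_⟩
  rw [Q_add, r.iso, two_add, zero_add]
  refine E.ind (p := fun u => B Q (T u) u = 0) (fun y hy => ?_) (fun a b p q => ?_) u
  · rw [← pm_two.1 (r.act hy), ← E.cm2 E.fs (r.mem hy) hy]; exact s.cm hy
  · simp [p, q, ← h2 a, B_comm Q a, two_add]

theorem E2.tt1 (r : Rep Y Q ι g T) (s : Tt Y g) : T * T = T + 1 := LinearMap.ext <|
  E.ind (fun y hy => by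
    have := pm_two.1 (E.st (r.mem hy) hy)
    rw [s.ln hy, (zmod2_cases _).resolve_left (mt (E.cm2 E.fs (r.mem hy) hy).2 (s.nc hy)),
      pm_two.1 (r.act (r.mem hy)), pm_two.1 (r.act hy)] at this
    simpa [sub_eq_add_neg, two_neg] using this) fun _ _ a b => by rw [map_add, map_add, a, b]

theorem E2.tt3 (h1 : Tt Y h) (h2 : Tt Y k) (h3 : Tt Y (h * k)) (c : h ⫫ k) (hy : y ∈ Y) :
    y ▹ k = y ▹ h := by
  obtain ⟨T, r⟩ := E.exists_rep E.fs h1.mem
  obtain ⟨U, s⟩ := E.exists_rep E.fs h2.mem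
  have e := E.tt1 (r.mul s) h3
  rw [mul_assoc, ← mul_assoc T, E.cmr r s c, mul_assoc, E.tt1 r h1, ← mul_assoc, E.tt1 s h2] at e
  have e' : U = T := by
    rw [← two_neg T]; linear_combination (norm := noncomm_ring) e
  exact E.inj (s.mem hy) (r.mem hy) ((s.act hy).trans (e' ▸ (r.act hy).symm))

theorem E2.eight [Finite G] [FiniteDimensional (ZMod 2) V] (P : TP D X Y) :
    (∃ r ≤ 2, Module.finrank (ZMod 2) V = 4 * r) ∧ ∃ U : Submodule (ZMod 2) V, (∀ u ∈ U, Q u = 0) ∧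
      Module.finrank (ZMod 2) V ≤ 2 * Module.finrank (ZMod 2) U := by
  obtain ⟨x, hx⟩ := P.cx.ne
  have H := P.px.toFS
  have I := P.symm.perp_prim hx
  obtain ⟨a, ha, -⟩ := I.two
  obtain ⟨b, hb⟩ := I.exists_perp ha
  obtain ⟨f, hf, f1, f2⟩ := I.exists_sep hb.1 ha hb.2.1
  obtain ⟨e, he, e1⟩ := I.exists_nc hb.1
  choose! ρ r using fun x' hx' => E.exists_rep E.fs (P.mx (x' := x') hx hx')
  have s := fun x' (h : x' ∈ perp X x) => E.st1 (r x' h.1) (P.st' hx h.1 h.2.2 h.2.1.symm)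
  have cm : ∀ {a b}, a ∈ X → b ∈ X → x ⫫ a → x ⫫ b → a ⫫ b → ∀ v, ρ a (ρ b v) = ρ b (ρ a v) :=
    fun ha hb h1 h2 h3 => LinearMap.congr_fun (E.cmr (r _ ha) (r _ hb)
      (((Commute.refl x).mul_right h2).mul_left (h1.symm.mul_right h3)))
  have ac : ∀ {a b}, a ∈ perp X x → b ∈ perp X x → ¬ a ⫫ b → ∀ v,
      (ρ a + 1) (ρ b v) + ρ b ((ρ a + 1) v) = v := fun {a b} ha hb h v => by
    have := LinearMap.congr_fun (E.tt1 ((r _ ha.1).mul (r _ hb.1)) (by
      rw [ha.2.2.symm.mul_mul_mul_comm, H.sq hx, one_mul]; exact P.tt ha.1 hb.1 h)) (ρ a (ρ b v))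
    simp only [Module.End.mul_apply, LinearMap.add_apply, Module.End.one_apply, (s a ha).1,
      (s b hb).1, map_add] at this ⊢
    linear_combination (norm := module) two_add (ρ b v) + two_add (ρ a (ρ b v)) + this
  have sq : ∀ {a}, a ∈ perp X x → ∀ v, (ρ a + 1) ((ρ a + 1) v) = 0 := fun ha v => by
    simp [(s _ ha).1, add_comm, two_add]
  have c := cm ha.1 hb.1.1 ha.2.2 hb.1.2.2 hb.2.2
  have sa : ∀ u w, B Q u (((ρ a + 1) * (ρ b + 1)) w) = B Q (((ρ a + 1) * (ρ b + 1)) u) w := fun u w => by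
    simp [(s a ha).2.1, (s b hb.1).2.1, c]
  have nm : ∀ v, (ρ b + 1) ((ρ a + 1) v) = (ρ a + 1) ((ρ b + 1) v) := fun v => by simp [c]; abel
  refine ⟨⟨_, ?_, finrank_four (sq ha) (sq hb.1) nm (ac ha hf f2)
    (ac hb.1 he e1) fun v => by simp [cm hb.1.1 hf.1 hb.1.2.2 hf.2.2 f1]⟩,
    LinearMap.range (ρ a + 1), by rintro _ ⟨u, rfl⟩; exact (s a ha).2.2 u, ?_⟩
  swap
  · have := Submodule.finrank_mono (show LinearMap.ker (ρ a + 1) ≤ LinearMap.range (ρ a + 1) from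
      fun v hv => ⟨ρ f v, by simpa [show (ρ a + 1) v = 0 from hv] using ac ha hf f2 v⟩)
    have := (ρ a + 1).finrank_range_add_finrank_ker
    omega
  obtain ⟨v, hv, v0⟩ : ∃ v, Q v = 1 ∧ ((ρ a + 1) * (ρ b + 1)) v = 0 := by
    by_contra q
    obtain ⟨w, hw, -⟩ := E.hw 0 0
    refine q ⟨w, hw, E.nd _ fun u => ?_⟩
    have := (zmod2_cases (Q ((ρ a + 1) u + (ρ b + 1) w))).resolve_right fun k => q ⟨_, k, by
      rw [map_add, Module.End.mul_apply, Module.End.mul_apply, sq hb.1, nm, sq ha]; simp⟩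
    rw [Q_add] at this
    simp [(s a ha).2.2, (s b hb.1).2.2] at this
    simp [(s a ha).2.1]
    linear_combination this
  obtain ⟨y, hy, e⟩ := E.surj v hv
  obtain rfl := pm_two.1 e
  have t : ∀ a ∈ X, ι (y ▹ x ▹ a) = ρ a (ι y) := fun a ha => sj_sj y x a ▸ pm_two.1 ((r a ha).act hy)
  have k1 : ∀ u, Q u = 1 → (∀ i, B Q (![ι y, ρ a (ι y), ρ b (ι y)] i) u = 0) →
      ((ρ a + 1) * (ρ b + 1)) u = 0 := fun u hu h => by
    obtain ⟨z, hz, e⟩ := E.surj u hu
    obtain rfl := pm_two.1 e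
    obtain ⟨d, hd, rfl⟩ := P.surj hy hx hz
    have k : ∀ a ∈ X, B Q (ρ a (ι y)) (ι (y ▹ x ▹ d)) = 0 → a ⫫ d := fun a ha q =>
      (P.cm2 hy hx ha hd).1 ((E.cm2 E.fs (P.m hy hx ha) hz).2 (t a ha ▸ q))
    have xd := (P.cm hy hx hd).1 ((E.cm2 E.fs hy hz).2 (h 0)).symm
    rw [t d hd, ← map_zero (ρ d), ← v0]
    simp [cm ha.1 hd ha.2.2 xd (k a ha.1 (h 1)), cm hb.1.1 hd hb.1.2.2 xd (k b hb.1.1 (h 2))]
  have o1 : ∀ a ∈ perp X x, B Q (ρ a (ι y)) (ι y) = 0 := fun a ha => by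
    simpa [Q_add, (r a ha.1).iso, two_add] using (s a ha).2.2 (ι y)
  refine (Submodule.finrank_mono (t := Submodule.span _ (Set.range ![(ρ a + 1) (ι y), (ρ b + 1) (ι y)]))
    ?_).trans (finrank_range_le_card ![(ρ a + 1) (ι y), (ρ b + 1) (ι y)])
  rintro _ ⟨z, rfl⟩
  obtain ⟨c, e⟩ := mem_span_of_orth E.nd (w := ((ρ a + 1) * (ρ b + 1)) z)
    (r := ![ι y, ρ a (ι y), ρ b (ι y)]) fun u h => by
      rw [← sa]
      rcases zmod2_cases (Q u) with q | q
      · have := k1 (u + ι y) (by simp [Q_add, q, hv, B_comm Q u, show B Q (ι y) u = 0 from h 0])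
          fun i => by rw [map_add, h i]; fin_cases i <;> simp [two_B, o1 a ha, o1 b hb.1]
        rw [map_add, v0, add_zero] at this
        rw [this, map_zero]
      · rw [k1 u q h, map_zero]
  have q : Q (((ρ a + 1) * (ρ b + 1)) z) = 0 := (s a ha).2.2 _
  have ab : B Q (ρ a (ι y)) (ρ b (ι y)) = 0 := by
    rw [← t a ha.1, ← t b hb.1.1, ← E.cm2 E.fs (P.m hy hx ha.1) (P.m hy hx hb.1.1), P.cm2 hy hx ha.1 hb.1.1]
    exact hb.2.2
  rw [e] at q ⊢
  simp [Fin.sum_univ_three, Q_add, Q_smul, hv, (r a ha.1).iso, (r b hb.1.1).iso, ab, B_comm Q (ι y),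
    o1 a ha, o1 b hb.1] at q
  refine (Submodule.mem_span_range_iff_exists_fun _).2 ⟨![c 1, c 2], ?_⟩
  have : c 0 = c 1 + c 2 := by
    revert q; generalize c 0 = p, c 1 = q, c 2 = r; revert p q r; decide
  simp [Fin.sum_univ_three, this]
  module

omit E in
theorem TP.two [Finite G] (P : TP D X Y) (K : KO 2 6 Y) :
    ∃ ι, E2 Y (HS 4 (0 : QuadraticForm (ZMod 2) PUnit.{1})) ι := by
  obtain ⟨n, hn, Q, ι, nd, h⟩ := K
  rcases std_two hn nd with ⟨m, hm, φ, e⟩ | ⟨m, hm, φ, e⟩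
  · have E := E2.mk (h.congr φ e) P.py.toFS (bnondeg_HS bnondeg_zero)
      (hw_HS (fun _ _ => rfl) (by omega))
    obtain ⟨⟨r, h1, h2⟩, -⟩ := E.eight P
    rw [finrank_HV, Module.finrank_zero_of_subsingleton] at h2
    obtain rfl : m = 4 := by omega
    exact ⟨_, E⟩
  · have E := E2.mk (h.congr φ e) P.py.toFS (bnondeg_HS aniso_one_one.bnondeg)
      (hw_HS (fun _ => aniso_one_one.eq_zero) (by simp; omega))
    obtain ⟨-, U, h3, h4⟩ := E.eight P
    have := finrank_sing_HS_le (fun _ => aniso_one_one.eq_zero) m U h3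
    rw [finrank_HV] at h4
    simp at h4; omega

end Cfsg.Agent.FT
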