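import Cfsg.Agent.FT.Tri3

/-!
# Disconnected commuting graphs: characteristic three
-/

set_option autoImplicit false

namespace Cfsg.Agent.FT

open Cfsg Cfsg.Agent.TT Subgroup
open Cfsg.Agent.Cl.Orth hiding perp
open Cfsg.Agent.Fi (perp)

variable {G : Type*} [Group G] {D X Y : Set G} {a b c d g h k k' x x' y y' z : G}
  {V : Type*} [AddCommGroup V] [Module (ZMod 3) V] {Q : QuadraticForm (ZMod 3) V}
  {ι : G → V} {T U J K L : Module.End (ZMod 3) V} {u v w : V}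

theorem three_neg (h : v = -v) : v = 0 := by
  have := three_add v
  rwa [add_eq_zero_iff_eq_neg.2 h, zero_add] at this

/-- an isometry of square `-1` -/
structure Cx (Q : QuadraticForm (ZMod 3) V) (J : Module.End (ZMod 3) V) : Prop where
  iso : ∀ v, Q (J v) = Q v
  sq : ∀ v, J (J v) = -v

theorem Cx.bb (h : Cx Q J) (u v : V) : B Q (J u) (J v) = B Q u v := B_congr J h.iso u v
theorem Cx.sk (h : Cx Q J) (u v : V) : B Q (J u) v = -B Q u (J v) := by rw [← h.bb, h.sq]; simp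
theorem Cx.z1 (h : Cx Q J) (u : V) : B Q u (J u) = 0 := three_neg (by rw [← h.sk, B_comm])
theorem Cx.neg (h : Cx Q J) : Cx Q (-J) := ⟨fun v => by simp [h.iso], fun v => by simp [h.sq]⟩
theorem Cx.anti (h : Cx Q J) (h' : Cx Q K) (h2 : Cx Q (K * J)) (v : V) : J (K v) = -K (J v) := by
  simpa [h.sq, h'.sq, neg_eq_iff_eq_neg] using (h2.sq (J (K v))).symm
theorem Cx.z2 (h : Cx Q J) (h' : Cx Q K) (c : ∀ v, J (K v) = -K (J v)) (u : V) :
    B Q (J u) (K u) = 0 := three_neg (by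
  conv_lhs => rw [h.sk, c, map_neg, neg_neg, B_comm, h'.sk])

variable [FiniteDimensional (ZMod 3) V]

theorem exists_one2 (nd : BNondeg Q) (h5 : 5 ≤ Module.finrank (ZMod 3) V) (hu : Q u ≠ 0) (hw : Q w ≠ 0)
    (h : B Q u w = 0 ∨ u = w) : ∃ p q, Q p = 1 ∧ Q q = 1 ∧ B Q p u = 0 ∧ B Q p w = 0 ∧ B Q q u = 0 ∧
      B Q q w = 0 ∧ B Q q p = 0 := by
  have t : (2 : ZMod 3) ≠ 0 := by decide
  rcases h with h | rfl
  · obtain ⟨p, p1, p2⟩ := exists_one nd (b := ![u, w]) (by simp [Fin.forall_fin_two, h, Bs h])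
      (by simp [Fin.forall_fin_two, B_self, t, hu, hw]) (by omega)
    have p3 : B Q p u = 0 := p2 0
    have p4 : B Q p w = 0 := p2 1
    obtain ⟨q, q1, q2⟩ := exists_one nd (b := ![u, w, p])
      (by simp [Fin.forall_fin_succ, h, Bs h, p3, p4, Bs p3, Bs p4])
      (by simp [Fin.forall_fin_succ, B_self, t, hu, hw, p1]) (by omega)
    exact ⟨p, q, p1, q1, p3, p4, q2 0, q2 1, q2 2⟩
  · obtain ⟨p, p1, p2⟩ := exists_one nd (b := ![u]) (by simp [Fin.forall_fin_succ])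
      (by simp [B_self, t, hu]) (by omega)
    have p3 : B Q p u = 0 := p2 0
    obtain ⟨q, q1, q2⟩ := exists_one nd (b := ![u, p]) (by simp [Fin.forall_fin_succ, p3, Bs p3])
      (by simp [Fin.forall_fin_succ, B_self, t, hu, p1]) (by omega)
    exact ⟨p, q, p1, q1, p3, p3, q2 0, q2 0, q2 1⟩

theorem ind3 (nd : BNondeg Q) (h5 : 5 ≤ Module.finrank (ZMod 3) V) {p : V → Prop}
    (h1 : ∀ v, Q v = 1 → p v) (h2 : ∀ u v, p u → p v → p (u + v)) (v : V) : p v := by
  have k : ∀ v, Q v ≠ 0 → p v := fun v hv => by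
    rcases z3 (Q v) with e | e | e
    exacts [absurd e hv, h1 v e, by
      obtain ⟨a, b, a1, b1, a2, -, b2, -, ab⟩ := exists_one2 nd h5 hv hv (.inr rfl)
      simpa using h2 _ _ (h2 _ _ (h1 (v + a + b) (by simp [Q_add, e, a1, b1, Bs a2, Bs b2, Bs ab]))
        (h1 (-b) (by simpa))) (h1 (-a) (by simpa))]
  by_cases e : Q v = 0
  swap; · exact k v e
  by_cases e0 : v = 0
  · obtain ⟨a, ha, -⟩ := exists_one nd (k := 0) (b := ![]) (by simp) (by simp) (by omega)
    simpa [e0] using h2 _ _ (h1 a ha) (h1 (-a) (by simpa))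
  obtain ⟨f, f1, f2, -⟩ := exists_partner nd e e0 (u := 0) (.inr rfl) (by simp)
  have := h2 _ _ (k (-(v + f)) (by simp [Q_add, e, f1, B_comm Q v, f2]))
    (k (f - v) (by simp [Q_sub, e, f1, f2]))
  rwa [show -(v + f) + (f - v) = v by linear_combination (norm := module) -three_add v] at this

theorem ext3 (nd : BNondeg Q) (h5 : 5 ≤ Module.finrank (ZMod 3) V) (h : ∀ v, Q v = 1 → T v = U v) :
    T = U := LinearMap.ext <| ind3 nd h5 h fun _ _ a b => by rw [map_add, map_add, a, b]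

theorem cx_of (nd : BNondeg Q) (h5 : 5 ≤ Module.finrank (ZMod 3) V) (iso : ∀ v, Q (T v) = Q v)
    (h : ∀ v, Q v = 1 → B Q v (T v) = 0) : Cx Q T := by
  have k1 : ∀ u w, Q u = 1 → Q w = 1 → B Q u w ≠ 0 → B Q u (T w) + B Q w (T u) = 0 := fun u w hu hw e => by
    have := h _ ((Q_rf hw u).trans hu)
    simp [h u hu, h w hw] at this
    exact (mul_eq_zero.1 (by linear_combination -this)).resolve_left e
  have k2 : ∀ u w, Q u = 1 → Q w = 1 → B Q u (T w) + B Q w (T u) = 0 := fun u w hu hw => by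
    by_cases e : B Q u w = 0
    swap; · exact k1 u w hu hw e
    obtain ⟨p, q, p1, q1, p2, p3, q2, q3, q4⟩ := exists_one2 nd h5 (hu ▸ one_ne_zero) (hw ▸ one_ne_zero)
      (.inl e)
    have a1 := k1 (u + w + p + q) w (by
      simp [Q_add, hu, hw, p1, q1, e, Bs p2, Bs p3, Bs q2, Bs q3, Bs q4]; rfl) hw
      (by simp [e, p3, q3, B1 hw])
    have a2 := k1 (u + w - p - q) w (by
      simp [Q_add, Q_sub, hu, hw, p1, q1, e, Bs p2, Bs p3, Bs q2, Bs q3, Bs q4]; rfl) hw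
      (by simp [e, p3, q3, B1 hw])
    simp [h w hw] at a1 a2
    exact three_neg (by linear_combination a1 + a2)
  have k3 : ∀ u w, B Q u (T w) + B Q w (T u) = 0 := fun u w =>
    ind3 nd h5 (p := fun u => B Q u (T w) + B Q w (T u) = 0) (fun u hu =>
      ind3 nd h5 (p := fun w => B Q u (T w) + B Q w (T u) = 0) (fun w => k2 u w hu)
        (fun _ _ a b => by simp; linear_combination a + b) w)
      (fun _ _ a b => by simp; linear_combination a + b) u
  exact ⟨iso, fun v => eq_neg_of_add_eq_zero_left (nd _ fun u => by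
    have := k3 u (T v)
    rwa [B_congr T iso, B_comm Q v, ← map_add] at this)⟩

theorem eight3 (nd : BNondeg Q) (h6 : 6 ≤ Module.finrank (ZMod 3) V) (hJ : Cx Q J) (hK : Cx Q K)
    (hL : Cx Q L) (jk : ∀ v, J (K v) = -K (J v)) (jl : ∀ v, J (L v) = -L (J v))
    (kl : ∀ v, K (L v) = -L (K v)) (hv : Q v = 1) (e : L (K (J v)) = v)
    (key : ∀ u, Q u = 1 → (∀ i, B Q u (![v, J v, K v, L v] i) = 0) → ∃ M, Cx Q M ∧ pm u (M v) ∧
      (∀ v, J (M v) = -M (J v)) ∧ (∀ v, K (M v) = -M (K v)) ∧ ∀ v, L (M v) = -M (L v)) :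
    Module.finrank (ZMod 3) V ≤ 8 ∧ ∃ b : Fin 8 → V, ∀ i j, B Q (b i) (b j) = if i = j then -1 else 0 := by
  set a := ![v, J v, K v, L v] with ha
  have o : ∀ i j, B Q (a i) (a j) = if i = j then -1 else 0 := by
    simp [ha, Fin.forall_fin_succ, B1, hJ.iso, hK.iso, hL.iso, hv, hJ.z1, hK.z1, hL.z1, Bs (hJ.z1 v),
      Bs (hK.z1 v), Bs (hL.z1 v), hJ.z2 hK jk, hJ.z2 hL jl, hK.z2 hL kl, Bs (hJ.z2 hK jk v),
      Bs (hJ.z2 hL jl v), Bs (hK.z2 hL kl v)]
  have k1 : ∀ u, Q u = 1 → (∀ i, B Q u (a i) = 0) → L (K (J u)) = -u := fun u hu h => by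
    obtain ⟨M, -, q, m1, m2, m3⟩ := key u hu h
    rcases q with rfl | rfl <;> simp [m1, m2, m3, e]
  have e3 : J (K v) = L v := by rw [jk, ← hL.sq (K _), e]
  have fa : ∀ i, L (K (J (a i))) = a i := by
    have h1 : L (K (J (J v))) = J (L (K (J v))) := by simp only [jl, jk, map_neg, neg_neg]
    have h2 : L (K (J (K v))) = K (L (K (J v))) := by simp only [kl, jk, map_neg]
    have h3 : L (K (J (L v))) = L (L (K (J v))) := by simp only [kl, jl, map_neg, neg_neg]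
    rw [e] at h1 h2 h3
    simp [ha, Fin.forall_fin_succ, e, h1, h2, h3]
  obtain ⟨u, hu, h⟩ := exists_one nd (b := a) (fun i j q => by simp [o, q]) (by simp [o]) h6
  obtain ⟨M, hM, -, m1, m2, m3⟩ := key u hu h
  have x : ∀ i j, B Q (a i) (M (a j)) = 0 := fun i j => three_neg (by
    conv_lhs => rw [← hJ.bb, ← hK.bb, ← hL.bb, fa]
    simp [m1, m2, m3, fa])
  let b : Fin (4 + 4) → V := Fin.append a (M ∘ a)
  have ob : ∀ i j, B Q (b i) (b j) = if i = j then -1 else 0 := fun i j => by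
    cases i using Fin.addCases <;> cases j using Fin.addCases <;>
      simp [b, -Fin.natAdd_eq_addNat, o, x, Bs (x _ _), hM.bb, Fin.ext_iff] <;> omega
  refine ⟨le_of_not_gt fun q => ?_, b, ob⟩
  obtain ⟨w, w1, w2⟩ := exists_ns nd (b := b) (fun i j q => by simp [ob, q]) (by simp [ob]) q
  have fin : ∀ w, Q w = 1 → (∀ i, B Q w (a i) = 0) → (∀ i, B Q w (M (a i)) = 0) → False :=
    fun w w1 w2 w3 => by
      have := k1 (M w) ((hM.iso w).trans w1) fun i => by rw [hM.sk, w3, neg_zero]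
      simp only [m1, m2, m3, map_neg, neg_neg, k1 w w1 w2] at this
      simpa [three_neg this, w1] using hM.iso w
  have w3 : ∀ i, B Q w (a i) = 0 := fun i => by simpa [b] using w2 (Fin.castAdd 4 i)
  have w4 : ∀ i, B Q w (M (a i)) = 0 := fun i => by
    simpa [b, -Fin.natAdd_eq_addNat] using w2 (Fin.natAdd 4 i)
  rcases z3 (Q w) with q | q | q
  exacts [w1 q, fin w q w3 w4, by
    have ja : ∀ f : V →ₗ[ZMod 3] ZMod 3, (∀ i, f (a i) = 0) → ∀ i, f (J (a i)) = 0 := fun f h => by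
      simp only [ha, Fin.forall_fin_succ] at h ⊢
      simp at h
      simpa [hJ.sq, e3, h] using show f (J (L v)) = 0 by simp [← e3, hJ.sq, h]
    exact fin (w + J w) (by simp [Q_add, hJ.iso, hJ.z1, q]; rfl)
      (fun i => by simp [hJ.sk, w3, ja _ w3])
      fun i => by simpa [hJ.sk, w4, m1] using ja (B Q w ∘ₗ M) w4 i]

/-- coordinates of a hyperbolic basis -/
def hyp8 : HV (ZMod 3) 4 PUnit.{1} →ₗ[ZMod 3] Fin 8 → ZMod 3 where
  toFun v := ![v.1 0 + v.2.1 0, v.1 0 + v.1 1 - v.2.1 0 - v.2.1 1, v.1 0 - v.1 1 - v.2.1 0 + v.2.1 1,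
    v.1 1 + v.2.1 1, v.1 2 + v.2.1 2, v.1 2 + v.1 3 - v.2.1 2 - v.2.1 3,
    v.1 2 - v.1 3 - v.2.1 2 + v.2.1 3, v.1 3 + v.2.1 3]
  map_add' u v := by ext i; fin_cases i <;> simp <;> ring
  map_smul' a v := by ext i; fin_cases i <;> simp <;> ring

theorem exists_plus8 (hn : Module.finrank (ZMod 3) V ≤ 8) {b : Fin 8 → V}
    (hb : ∀ i j, B Q (b i) (b j) = if i = j then -1 else 0) :
    ∃ φ : V ≃ₗ[ZMod 3] HV (ZMod 3) 4 PUnit.{1}, ∀ v, HS 4 0 (φ v) = Q v := by
  let f := Fintype.linearCombination (ZMod 3) b ∘ₗ hyp8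
  have q : ∀ v, Q (f v) = HS 4 0 v := fun v => by
    have := B_self Q (f v)
    simp only [f, LinearMap.comp_apply, Fintype.linearCombination_apply, map_sum, map_smul,
      LinearMap.sum_apply, LinearMap.smul_apply, hb, smul_eq_mul, mul_ite, mul_zero, Finset.sum_ite_eq',
      Finset.mem_univ, if_true] at this
    simp only [f, LinearMap.comp_apply, Fintype.linearCombination_apply]
    simp [hyp8, Fin.sum_univ_eight] at this ⊢
    simp [HS_apply, dotProduct, Fin.sum_univ_four]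
    linear_combination this + (Q (_ + _ + _ + _ + _ + _ + _ + _) + v.1 0 ^ 2 + v.2.1 0 ^ 2 - v.1 0 * v.2.1 0 +
      v.1 1 ^ 2 + v.2.1 1 ^ 2 - v.1 1 * v.2.1 1 + v.1 2 ^ 2 + v.2.1 2 ^ 2 - v.1 2 * v.2.1 2 +
      v.1 3 ^ 2 + v.2.1 3 ^ 2 - v.1 3 * v.2.1 3) * (by decide : (3 : ZMod 3) = 0)
  have i : Function.Injective f := (injective_iff_map_eq_zero f).2 fun u e =>
    bnondeg_HS bnondeg_zero u fun x => by rw [← B_congr f q, e, map_zero]
  have := LinearMap.finrank_le_finrank_of_injective i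
  let φ := f.linearEquivOfInjective i (by
    rw [finrank_HV, Module.finrank_zero_of_subsingleton] at this ⊢; omega)
  exact ⟨φ.symm, fun v => by rw [← q]; exact congrArg Q (φ.apply_symm_apply v)⟩

/-- an orthogonal space over the field with three elements -/
structure E3 (Y : Set G) (Q : QuadraticForm (ZMod 3) V) (ι : G → V) : Prop extends Emb Y Q ι where
  fs : FS Y
  nd : BNondeg Q
  h6 : 6 ≤ Module.finrank (ZMod 3) V

section
variable (E : E3 Y Q ι)
include E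

theorem E3.h5 : 5 ≤ Module.finrank (ZMod 3) V := by have := E.h6; omega

theorem E3.cx (r : Rep Y Q ι g T) (s : St Y g) : Cx Q T := cx_of E.nd E.h5 r.iso fun v hv => by
  obtain ⟨y, hy, e1, e2⟩ := r.vec E.toEmb hv
  rw [← e1.B0, ← e2.B0']
  exact Bs (((E.comm z3 E.fs (r.mem hy) hy).1 (s.cm hy)).resolve_left (s.ne hy))

theorem E3.eight [Finite G] (P : TP D X Y) :
    ∃ φ : V ≃ₗ[ZMod 3] HV (ZMod 3) 4 PUnit.{1}, ∀ v, HS 4 0 (φ v) = Q v := by
  obtain ⟨x, hx⟩ := P.cx.ne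
  obtain ⟨y, hy⟩ := P.cy.ne
  have H := P.px.toFS
  have I := P.symm.perp_prim hx
  obtain ⟨a, ha, -⟩ := I.two
  obtain ⟨b, hb⟩ := I.exists_perp ha
  have C : Claw D x a b y := ⟨P.cx.sub hx, P.cx.sub ha.1, P.cx.sub hb.1.1, P.cy.sub hy, P.nc hx hy,
    P.nc ha.1 hy, P.nc hb.1.1 hy, ha.2.2, hb.1.2.2, hb.2.2⟩
  have hc : sp x a b y ∈ perp X x := ⟨P.cx.cl hx (C.mem P.toFS) (C.c1 P.toFS).symm,
    fun e => hb.2.1 (C.eq1 P.toFS e).symm, (C.c1 P.toFS).symm⟩
  have ca := And.intro (C.c2 P.toFS).symm fun e => hb.1.2.1 (C.eq2 P.toFS (Eq.symm e)).symm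
  have cb := And.intro (C.c3 P.toFS).symm fun e => ha.2.1 (C.eq3 P.toFS (Eq.symm e)).symm
  have act := C.act P.toFS
  generalize sp x a b y = c at hc ca cb act
  choose! ρ r using fun x' hx' => E.exists_rep E.fs (P.mx (x' := x') hx hx')
  have s := fun x' (h : x' ∈ perp X x) => E.cx (r x' h.1) (P.st' hx h.1 h.2.2 h.2.1.symm)
  have ac : ∀ {a b}, a ∈ perp X x → b ∈ perp X x → a ⫫ b ∧ a ≠ b → ∀ v, ρ a (ρ b v) = -ρ b (ρ a v) :=
    fun ha hb h => (s _ ha).anti (s _ hb) (E.cx ((r _ ha.1).mul (r _ hb.1)) (by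
      rw [ha.2.2.symm.mul_mul_mul_comm, H.sq hx, one_mul]; exact P.st' ha.1 hb.1 h.1 h.2))
  have t : ∀ a ∈ X, pm (ι (y ▹ x ▹ a)) (ρ a (ι y)) := fun a ha => sj_sj y x a ▸ (r a ha).act hy
  have key : ∀ u, Q u = 1 → B Q u (ι y) = 0 → ∃ d ∈ perp X x, pm u (ρ d (ι y)) ∧
      ∀ a ∈ X, B Q u (ρ a (ι y)) = 0 → a ⫫ d ∧ a ≠ d := fun u hu h => by
    obtain ⟨z, hz, e⟩ := E.surj u hu
    have k : ∀ w ∈ Y, B Q u (ι w) = 0 → w ⫫ z ∧ z ≠ w := fun w hw q => ⟨(E.comm_of E.fs hz hw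
      ((e.B0 _).2 q)).symm, by rintro rfl; simp [← e.B0, B1 (E.q1 hz)] at q⟩
    obtain ⟨d, hd, rfl⟩ := P.exists_st hy hx ⟨hz, (k y hy h).2, (k y hy h).1⟩
    refine ⟨d, hd, e.symm.trans (t d hd.1), fun a ha q => ?_⟩
    have := k _ (P.m hy hx ha) (((t a ha).B0' _).2 q)
    exact ⟨(P.cm2 hy hx ha hd.1).1 this.1, fun e => this.2 (e ▸ rfl)⟩
  have e := (((r a ha.1).mul (r b hb.1.1)).mul (r c hc.1)).act hy
  simp only [← sj_sj] at e
  rw [← sj_comm ha.2.2 (y ▹ x), H.ss hx, ← sj_comm hb.1.2.2, ← sj_comm ha.2.2, ← act, H.ss hc.1] at e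
  have ab := ac ha hb.1 ⟨hb.2.2, hb.2.1.symm⟩
  rcases e with e | e
  · obtain ⟨h, b, hb⟩ := eight3 E.nd E.h6 (s a ha) (s b hb.1) (s c hc) ab (ac ha hc ca) (ac hb.1 hc cb)
      (E.q1 hy) e.symm fun u hu h => let ⟨d, hd, p, q⟩ := key u hu (h 0)
      ⟨_, s d hd, p, ac ha hd (q a ha.1 (h 1)), ac hb.1 hd (q b hb.1.1 (h 2)), ac hc hd (q c hc.1 (h 3))⟩
    exact exists_plus8 h hb
  · obtain ⟨h, b, hb⟩ := eight3 E.nd E.h6 (s a ha) (s b hb.1) (s c hc).neg ab (by simp [ac ha hc ca])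
      (by simp [ac hb.1 hc cb]) (E.q1 hy) e.symm fun u hu h => let ⟨d, hd, p, q⟩ := key u hu (h 0)
      ⟨_, s d hd, p, ac ha hd (q a ha.1 (h 1)), ac hb.1 hd (q b hb.1.1 (h 2)), by
        simp [ac hc hd (q c hc.1 (by simpa using h 3))]⟩
    exact exists_plus8 h hb

theorem E3.tt0 (r : Rep Y Q ι g T) (s : Tt Y g) : T ^ 4 + T ^ 2 + 1 = 0 := by
  have k : ∀ v, Q v = 1 → T (T v) + v = B Q (T v) v • T v ∧ B Q (T v) v ≠ 0 := fun v hv => by
    obtain ⟨y, hy, e1, e2⟩ := r.vec E.toEmb hv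
    have n := mt (E.comm_of E.fs (r.mem hy) hy) (s.nc hy)
    rw [e2.B0, e1.B0'] at n
    have e := (E.st (r.mem (r.mem hy)) (r.mem hy)).trans (((r.act (r.mem hy)).trans (e2.map T)).rf e2)
    rw [← s.ln hy, E.fs.br (r.mem hy) hy (s.nc hy), E.fs.ss (r.mem hy), r.B] at e
    refine ⟨(e1.symm.trans e).elim (fun e => absurd ?_ n) fun e => ?_, n⟩
    · have := congrArg (B Q · (T v)) e
      simp [r.B, B1 hv, B_comm Q v] at this
      exact this
    · linear_combination (norm := module) e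
  refine ext3 E.nd E.h5 fun v hv => ?_
  have h1 := k v hv
  have h2 := (k _ ((r.iso v).trans hv)).1
  have h3 := congrArg T h2
  rw [r.B] at h2 h3
  simp only [pow_succ, pow_zero, one_mul, Module.End.mul_apply, LinearMap.add_apply, map_add, map_smul,
    Module.End.one_apply, LinearMap.zero_apply] at h3 ⊢
  rcases z3 (B Q (T v) v) with q | q | q <;> rw [q] at h1 h2 h3
  · exact absurd rfl h1.2
  · linear_combination (norm := module) h3 + h2 + h1.1
  · linear_combination (norm := module) h3 - h2 + h1.1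

theorem E3.norm (s : Tt Y g) : ∃ T, Rep Y Q ι g T ∧ T ^ 2 + T + 1 = 0 := by
  obtain ⟨T, r⟩ := E.exists_rep E.fs s.mem
  have := ((r.mul r).mul r).mul r
  rw [s.cube, one_mul] at this
  exact ⟨_, this, by linear_combination (norm := noncomm_ring) (T ^ 4 - T ^ 2 + 1) * E.tt0 r s⟩

omit E [FiniteDimensional (ZMod 3) V] in
theorem rep_nB (r : Rep Y Q ι g T) (h : T ^ 2 + T + 1 = 0) (v : V) : B Q (T v) v = -Q v := by
  have := r.iso (T v)
  rw [show T (T v) = -(T v + v) by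
    simpa [sq, add_assoc, add_eq_zero_iff_eq_neg] using LinearMap.congr_fun h v,
    QuadraticMap.map_neg, Q_add] at this
  linear_combination this

theorem E3.uniq (r : Rep Y Q ι g T) (s : Rep Y Q ι g U) (h : T ^ 2 + T + 1 = 0)
    (h' : U ^ 2 + U + 1 = 0) : T = U := ext3 E.nd E.h5 fun v hv => by
  obtain ⟨y, hy, e1, e2⟩ := r.vec E.toEmb hv
  refine (e2.symm.trans ((s.act hy).trans (e1.map U))).resolve_right fun e => ?_
  have := rep_nB r h v
  rw [e, map_neg, LinearMap.neg_apply, rep_nB s h', hv] at this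
  exact absurd this (by decide)

theorem E3.fix (r : Rep Y Q ι h T) (s : Rep Y Q ι k U) (e1 : T ^ 2 + T + 1 = 0) (e2 : U ^ 2 + U + 1 = 0)
    (h2 : Tt Y k) (h3 : Tt Y (h * k)) (c : h ⫫ k) (v : V) : T (U v - v) = U v - v := by
  have u3 : U * U * U = 1 := by linear_combination (norm := noncomm_ring) (U - 1) * e2
  have := ((s.mul s).mul r).mul s
  rw [mul_assoc, c.eq, ← mul_assoc, h2.cube, one_mul] at this
  have q := E.uniq this r (by
    linear_combination (norm := noncomm_ring) U * e1 * (U * U) + U * T * u3 * T * U * U - u3) e1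
  have c' : Commute U T := by
    change _ * _ = _ * _
    linear_combination (norm := noncomm_ring) q * U - U * T * u3
  have := E.tt0 (r.mul s) h3
  rw [c'.mul_pow, c'.mul_pow, show U ^ 4 = U by linear_combination (norm := noncomm_ring) u3 * U,
    show T ^ 4 = T by linear_combination (norm := noncomm_ring) (T * T - T) * e1,
    show U ^ 2 = -U - 1 by linear_combination (norm := noncomm_ring) e2,
    show T ^ 2 = -T - 1 by linear_combination (norm := noncomm_ring) e1] at this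
  exact LinearMap.congr_fun (show T * (U - 1) = U - 1 by
    linear_combination (norm := noncomm_ring) three_add (U * T + 1) - this - c'.eq) v

theorem E3.tt3 (h1 : Tt Y h) (h2 : Tt Y k) (h2' : Tt Y k') (h3 : Tt Y (h * k)) (h3' : Tt Y (h * k'))
    (c : h ⫫ k) (c' : h ⫫ k') (hy : y ∈ Y) : y ▹ k ▹ k' = y ▹ k' ▹ k := by
  obtain ⟨T, r, e⟩ := E.norm h1
  have n : ∀ v, T v = v → Q v ≠ 1 := fun v q hv => by
    obtain ⟨y, hy, e1, e2⟩ := r.vec E.toEmb hv
    exact h1.nc hy (comm_of_eq' (E.inj (r.mem hy) hy (e2.trans (q.symm ▸ e1.symm))))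
  have key : ∀ {k k' U U'}, Rep Y Q ι k U → Rep Y Q ι k' U' → U ^ 2 + U + 1 = 0 → U' ^ 2 + U' + 1 = 0 →
      (∀ v, T (U v - v) = U v - v) → (∀ v, T (U' v - v) = U' v - v) → ∀ v,
      U (U' v) = U v + U' v - v := fun {k k' U U'} s s' f f' t t' v => by
    have q : ∀ {k U}, Rep Y Q ι k U → U ^ 2 + U + 1 = 0 → ∀ v, Q (U v - v) = 0 := fun s f v => by
      rw [Q_sub, s.iso, rep_nB s f]; linear_combination three_add (Q v)
    refine sub_eq_zero.1 (E.nd _ fun x => ?_)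
    have a1 := n _ (show T (U x - x + (U' v - v)) = _ by rw [map_add, t, t'])
    have a2 := n _ (show T (U x - x - (U' v - v)) = _ by rw [map_sub, t, t'])
    rw [Q_add, q s f, q s' f'] at a1
    rw [Q_sub, q s f, q s' f'] at a2
    have a3 : B Q (U x - x) (U' v - v) = 0 := by
      revert a1 a2; generalize B Q (U x - x) (U' v - v) = β; revert β; decide
    have a4 : U (U x) = -(U x + x) := by
      simpa [sq, add_assoc, add_eq_zero_iff_eq_neg] using LinearMap.congr_fun f x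
    have a5 := s.B (U (U x)) (U' v - v)
    rw [show U (U (U x)) = x by simp [a4], a4] at a5
    simp at a3 a5 ⊢
    linear_combination a5 - a3 - three_add (B Q x (U' v)) + three_add (B Q x v)
  obtain ⟨U, s, f⟩ := E.norm h2
  obtain ⟨U', s', f'⟩ := E.norm h2'
  have t := E.fix r s e f h2 h3 c
  have t' := E.fix r s' e f' h2' h3' c'
  refine E.inj (s'.mem (s.mem hy)) (s.mem (s'.mem hy)) (((s'.act (s.mem hy)).trans
    ((s.act hy).map U')).trans ?_)
  rw [key s' s f' f t' t, add_comm, ← key s s' f f' t t']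
  exact ((s.act (s'.mem hy)).trans ((s'.act hy).map U)).symm

end

theorem TP.three [Finite G] (P : TP D X Y) (K : KO 3 6 Y) :
    ∃ ι, E3 Y (HS 4 (0 : QuadraticForm (ZMod 3) PUnit.{1})) ι := by
  obtain ⟨n, hn, Q, ι, nd, h⟩ := K
  obtain ⟨φ, e⟩ := (E3.mk h P.py.toFS nd (by simpa)).eight P
  exact ⟨_, h.congr φ e, P.py.toFS, bnondeg_HS bnondeg_zero, by rw [finrank_HV]; omega⟩

end Cfsg.Agent.FT
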