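import Cfsg.Agent.FT.Tri4
import Cfsg.Agent.TT.WordsData
import Cfsg.Agent.TT.ThreeC

/-!
# Disconnected commuting graphs: three components
-/

set_option autoImplicit false

namespace Cfsg.Agent.FT

open Cfsg Cfsg.Agent.TT Subgroup Cfsg.Agent.Cl
open Cfsg.Agent.Cl.Orth hiding perp
open Cfsg.Agent.Fi (perp)

variable {G : Type*} [Group G] {D W X Y : Set G} {L : Subgroup G} {a b d g h k k' w x x' y : G}

theorem Tt.cm (H : FS W) (t : Tt W h) (ha : a ∈ W) : h ⫫ a ▹ h * a := by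
  have m := H.sj_mem t.mem ha
  rw [Commute.symm_iff, ← sj_eq_iff, mul_sj, ← t.ln ha, H.sj_eq ha]
  have := eq_inv_of_mul_eq_one_left (H.cube ha m (ncs (t.nc ha)))
  simpa [mul_assoc, H.inv ha, H.inv m] using this

section
variable [Finite G] (P : TD D L) (C : Cpt D X) (C' : Cpt D Y) (hx : x ∈ X) (hn : x ∉ Y)
include P C C' hx hn

theorem TD.cm (h1 : Tt Y h) (h2 : Tt Y k) (h2' : Tt Y k') (h3 : Tt Y (h * k)) (h3' : Tt Y (h * k'))
    (c : h ⫫ k) (c' : h ⫫ k') : k ⫫ k' := by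
  have T := P.tp C C' hx hn
  refine mul_inv_eq_one.1 (P.faith C' fun y hy => (sj_eq_iff.1 ?_).symm)
  rw [← sj_sj, sj_eq_iff_inv, inv_inv, ← sj_sj, ← sj_sj]
  rcases T.ko with K | K
  · obtain ⟨ι, E⟩ := T.two K
    rw [E.tt3 h1 h2' h3' c' (E.fs.sj_mem h2.mem hy), E.tt3 h1 h2 h3 c (E.fs.sj_mem h2'.mem hy),
      E.tt3 h1 h2 h3 c hy, E.tt3 h1 h2' h3' c' hy]
  · obtain ⟨ι, E⟩ := T.three K
    exact E.tt3 h1 h2 h2' h3 h3' c c' hy

theorem TD.three (hy : y ∈ Y) (hw : w ∈ D) : w ∈ X ∨ w ∈ Y ∨ w ∈ sjs X y := by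
  by_contra q
  push Not at q
  obtain ⟨W, CW, wW⟩ := exists_cpt hw
  have H := CW.fs P.toFS
  obtain ⟨x', hx', xx⟩ := (P.prim C).exists_nc hx
  have T := P.tp C CW hx fun e => q.1 (CW.le C e hx wW)
  have t := T.tt hx hx' xx
  have k1 : ∀ {a}, a ∈ W → Tt Y (a ▹ (x * x') * a) := fun ha =>
    (P.tp CW C' wW q.2.1).tt (H.sj_mem t.mem ha) ha (t.nc ha)
  have k2 : ∀ {a}, a ∈ W → Tt Y (x * x' * (a ▹ (x * x') * a)) := fun {a} ha => by
    have := (P.tp (C.sj P.toFS (P.mem a)) C' ⟨x, hx, rfl⟩ fun e => q.2.2 (CW.le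
      (C.sj P.toFS (P.mem y)) ha (mem_sjs.2 ?_) wW)).tt ⟨x, hx, rfl⟩ ⟨x', hx', rfl⟩ (mt comm_sj.1 xx)
    · rwa [← mul_sj, H.sj_eq ha, show a * (x * x') * a = x * x' * (a ▹ (x * x') * a) by
        rw [sj]; group] at this
    · have := C'.mul C P.toFS e hy hx
      rwa [P.t2 (C.sub hx) (CW.sub ha) (ncs (T.nc hx ha)), ← P.inv (C'.sub hy)] at this
  have m := H.sj_mem t.mem wW
  obtain ⟨a, ha, a0, a1, a2⟩ := (P.prim CW).exists_sepW wW m (ncs (t.nc wW))
  have := sj_comm (P.cm C C' hx hn ((P.tp C C' hx hn).tt hx hx' xx) (k1 wW) (k1 ha) (k2 wW) (k2 ha)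
    (t.cm H wW) (t.cm H ha)) (w ▹ (x * x'))
  simp only [← sj_sj _ (_ ▹ _)] at this
  rw [sj_self, sj_of (comm_sj.2 a1), H.t1 m ha a2, sj_of' a1, H.mve ha, sj_self,
    H.mve (H.sj_mem t.mem ha), H.br' ha (H.sj_mem t.mem ha) (t.nc ha), t.ln ha, t.ln wW, sj_inj,
    sj_inj] at this
  exact a0 this.symm

end

theorem TD.img (P : TD D L) [L.Normal] (C : Cpt D Y) (ha : a ∈ Y) (hb : b ∈ Y) :
    (a : G ⧸ L) = b := QuotientGroup.eq.2 (by rw [P.inv (C.sub ha)]; exact P.mulL C ha hb)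

theorem TD.quot [Finite G] (P : TD D L) [L.Normal] (C : Cpt D X) (C' : Cpt D Y) (hx : x ∈ X)
    (hn : x ∉ Y) : Nonempty (G ⧸ L ≃* Equiv.Perm (Fin 3)) := by
  obtain ⟨y, hy⟩ := C'.ne
  have n := (P.tp C C' hx hn).nc hx hy
  have dx := C.sub hx
  have dy := C'.sub hy
  obtain ⟨φ, e1, e2⟩ := Wd.exists_hom_S3 (a := (x : G ⧸ L)) (b := y)
    (by rw [← QuotientGroup.mk_mul, P.sq dx]; rfl) (by rw [← QuotientGroup.mk_mul, P.sq dy]; rfl)
    (by simp only [← QuotientGroup.mk_mul, ← P.sj_eq dx, ← P.sj_eq dy, P.br dy dx n])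
  refine ⟨(MulEquiv.ofBijective φ ⟨Wd.injective_S3 φ fun e => hn ?_, MonoidHom.range_eq_top.1 ?_⟩).symm⟩
  · rw [e1, e2, eq_comm, QuotientGroup.eq, P.inv dy] at e
    have := (C'.fs P.toFS).st (P.fix C' e hy) hy
    rwa [← sj_sj, sj_self, P.t1 dy dx n] at this
  · rw [eq_top_iff, ← map_top_of_surjective _ (QuotientGroup.mk'_surjective L), ← P.top,
      MonoidHom.map_closure, closure_le]
    rintro _ ⟨w, hw, rfl⟩
    rcases P.three C C' hx hn hy hw with q | q | ⟨w, q, rfl⟩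
    · exact ⟨_, e1.trans (P.img C hx q)⟩
    · exact ⟨_, e2.trans (P.img C' hy q)⟩
    · exact ⟨Equiv.swap 0 1 ▹ Equiv.swap 1 2, by rw [map_sj, e1, e2, P.img C hx q]; rfl⟩

theorem TD.iso (P : TD D L) (C : Cpt D Y) {K : Type*} [Group K] {T : Set K} (h : QI Y T) :
    Nonempty (L ≃* commutator (K ⧸ center K)) := by
  have := P.nm
  obtain ⟨e, -⟩ := h
  obtain ⟨u, -⟩ := exists_quot_bot (K := closure Y) (eq_bot_iff.2 fun g hg => Subtype.ext
    (P.faith C fun y hy => congrArg Subtype.val (mem_center_iff.1 hg ⟨y, subset_closure hy⟩).symm))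
  have : L = (commutator (closure Y)).map (closure Y).subtype := by
    rw [map_subtype_commutator]
    refine le_antisymm (P.qs.perf.ge.trans (commutator_mono (P.le_cpt C) (P.le_cpt C)))
      (commutator_le.2 fun g hg h hh => (QuotientGroup.eq_one_iff _).1 ?_)
    have k : ∀ {g}, g ∈ closure Y → (g : G ⧸ L) ∈ closure (QuotientGroup.mk' L '' Y) := fun hg =>
      (MonoidHom.map_closure _ Y).le (mem_map_of_mem _ hg)
    refine (map_commutatorElement (QuotientGroup.mk' L) g h).trans (commutatorElement_eq_one_iff_commute.2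
      (comm_clo (k hh) ?_))
    rintro _ ⟨a, ha, rfl⟩
    refine (comm_clo (k hg) ?_).symm
    rintro _ ⟨b, hb, rfl⟩
    exact comm_of_eq' (P.img C ha hb)
  exact ⟨((MulEquiv.subgroupCongr this).trans (equivMapOfInjective _ _ (subtype_injective _)).symm).trans
    (commutatorEquiv (u.symm.trans e))⟩

theorem comm_RG3 {V : Type*} [AddCommGroup V] [Module (ZMod 3) V] {Q : QuadraticForm (ZMod 3) V}
    [FiniteDimensional (ZMod 3) V] (hB : BNondeg Q) (hV : 5 ≤ Module.finrank (ZMod 3) V) :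
    Nonempty (commutator (RG Q 1 ⧸ center (RG Q 1)) ≃* EG Q ⧸ center (EG Q)) := by
  obtain ⟨e, f, -, -, h, -⟩ := exists_two_hyp_three hB hV
  let φ : EG Q →* RG Q 1 ⧸ center (RG Q 1) :=
    (QuotientGroup.mk' _).comp (inclusion (EG_le_RG hB hV one_ne_zero))
  have h1 : φ.range = commutator _ := by
    have a := map_commutator_RG hB hV one_ne_zero (j := (RG Q 1).subtype) (range_subtype _)
    have b : (commutator (RG Q 1)).map (QuotientGroup.mk' (center (RG Q 1))) = commutator _ := by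
      rw [map_commutator_eq, MonoidHom.range_eq_top.2 (QuotientGroup.mk'_surjective _)]; rfl
    rw [← b, MonoidHom.range_comp, inclusion_range, ← a, subgroupOf,
      comap_map_eq_self_of_injective (subtype_injective _)]
  have h2 : φ.ker = center _ := by
    ext g
    simp only [φ, MonoidHom.mem_ker, MonoidHom.comp_apply, QuotientGroup.mk'_apply,
      QuotientGroup.eq_one_iff]
    refine ⟨fun k => mem_center_iff.2 fun x => Subtype.ext ?_, fun k => mem_center_iff.2 fun x =>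
      Subtype.ext ?_⟩
    · have := congrArg Subtype.val (mem_center_iff.1 k (inclusion (EG_le_RG hB hV one_ne_zero) x))
      exact this
    · change (x : OG Q) * g.1 = g.1 * x
      rcases (h.mem_center_iff hB (by omega) g).1 k with k | k <;> rw [k]
      · simp
      · exact OG.ext' fun v => by simp [negO_apply]
  exact ⟨((MulEquiv.subgroupCongr h1).symm.trans (QuotientGroup.quotientKerEquivRange φ).symm).trans
    (QuotientGroup.quotientMulEquivOfEq h2)⟩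

theorem TD.omega [Finite G] (P : TD D L) (C : Cpt D X) (C' : Cpt D Y) (hx : x ∈ X) (hn : x ∉ Y) :
    Nonempty (L ≃* Omega (ZMod 2) (quadFormPlus 4 (ZMod 2))) ∨
      Nonempty (L ≃* POmega (ZMod 3) (quadFormPlus 4 (ZMod 3))) := by
  have T := P.tp C C' hx hn
  refine T.ko.imp (fun K => ?_) fun K => ?_
  · obtain ⟨ι, E⟩ := T.two K
    obtain ⟨e⟩ := P.iso C' (E.qi E.fs E.nd (MonoidHom.id _) Function.injective_id
      ((MonoidHom.range_eq_top.2 Function.surjective_id).trans (RG_two E.nd E.hw).symm))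
    obtain ⟨u, -⟩ := exists_quot_bot (center_two E.nd E.hw)
    exact ⟨e.trans (commutatorEquiv (u.trans (oPlus 4 (ZMod 2)).symm))⟩
  · obtain ⟨ι, E⟩ := T.three K
    obtain ⟨e⟩ := P.iso C' (E.qi E.fs E.nd _ (subtype_injective _) (range_subtype _))
    obtain ⟨u⟩ := comm_RG3 E.nd E.h5
    exact ⟨(e.trans u).trans (pomegaEquiv (oPlus 4 (ZMod 3))
      (commutator_HS bnondeg_zero (by omega) (by omega))).symm⟩

theorem exists_td [Finite G] (hC : IsThreeTranspositionClass D) (hZ : center G = ⊥)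
    (h2 : pCore 2 G = ⊥) (h3 : pCore 3 G = ⊥) (hd : ¬ (commutingGraph D).Connected) :
    TD D (generalizedFittingSubgroup G) ∧ ∃ X Y x, Cpt D X ∧ Cpt D Y ∧ x ∈ X ∧ x ∉ Y := by
  obtain ⟨d, dD, -⟩ := hC.2.1
  rw [connected_iff_rtg dD] at hd
  push Not at hd
  obtain ⟨x, hx, n⟩ := hd
  have two : ∃ a ∈ D, ∃ b ∈ D, a ≠ b := ⟨d, dD, x, hx, fun e => n (e ▸ .refl)⟩
  have c2 := h2.le.trans (bot_le (a := center G))
  have c3 := h3.le.trans (bot_le (a := center G))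
  have H : FS D := ⟨hC.1, fun {a b} ha _ => sj_eq_conj a b ▸ hC.group.2.1 _ _ ha⟩
  have tr : Tr D := fun a ha b hb => let ⟨g, e⟩ := hC.exists_conj ha hb
    ⟨g⁻¹, hC.2.2.ge trivial, (sj_inv_eq _ _).trans e⟩
  obtain ⟨L, hL, qs, e⟩ := exists_qs_normal hC two c2 c3
  rw [hZ, sup_bot_eq] at e
  obtain ⟨X, C, xX⟩ := exists_cpt hx
  obtain ⟨Y, C', dY⟩ := exists_cpt dD
  refine ⟨⟨⟨H, tr, fun a ha b hb h => hC.eq_of_center two ha hb (c2 (hC.t3.mul_mem_two ha hb
    fun x hx => ⟨H.v_symm tr ha hb h x hx, h x hx⟩)), fun a ha b hb h => hC.eq_of_center two ha hb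
      (c3 (hC.t3.mul_mem_three ha hb fun x hx => by
        simpa [mem_perp, hx] using Set.ext_iff.1 (H.w_eq tr ha hb h) x)), two⟩, hC.2.2, e ▸ hL,
    e ▸ qs, fun h => hZ.le (hC.fitting_le c2 c3 (inf_cent_fstarOf_le ⊤ ⟨trivial, fun l hl =>
      (h l (fstarOf_top (G := G) ▸ hl)).symm⟩)), fun ha hb c => e ▸ width_one_mod hC two c2 c3 qs ha hb c⟩,
    X, Y, x, C, C', xX, fun q => n ((C'.cc d dY x q).lift id fun _ _ h => ⟨C'.sub h.1, C'.sub h.2.1, h.2.2⟩)⟩

end Cfsg.Agent.FT
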